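import Mathlib

/-!
Transversal certificates for the explicit generators of the Mathieu group of degree 12.
-/

set_option autoImplicit false

namespace CfsgLib.Mathieu12Explicit

def tab : List (List ℕ) :=
  [[0, 1, 2, 4, 5, 3, 7, 8, 6, 10, 11, 9],
   [0, 1, 2, 6, 7, 8, 9, 10, 11, 3, 4, 5],
   [0, 1, 2, 3, 6, 9, 5, 8, 11, 4, 7, 10],
   [0, 1, 2, 3, 7, 11, 10, 5, 6, 8, 9, 4],
   [0, 1, 2, 3, 10, 8, 11, 6, 4, 7, 5, 9],
   [3, 1, 2, 0, 4, 5, 7, 6, 10, 11, 8, 9],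
   [1, 0, 2, 3, 4, 5, 9, 10, 11, 6, 7, 8],
   [0, 2, 1, 3, 4, 5, 11, 9, 10, 7, 8, 6]]

def tau0 : List (List ℕ) :=
  [[6, 7], [7], [], [5, 6, 7], [0, 5, 6, 7], [0, 0, 5, 6, 7], [1, 5, 6, 7], [1, 0, 5, 6, 7], [1, 0, 0, 5, 6, 7], [1, 1, 5, 6, 7], [4, 0, 5, 6, 7], [4, 1, 5, 6, 7]]

def tau1 : List (List ℕ) :=
  [[6], [], [], [5, 6], [0, 5, 6], [0, 0, 5, 6], [1, 5, 6], [1, 0, 5, 6], [1, 0, 0, 5, 6], [1, 1, 5, 6], [4, 0, 5, 6], [4, 1, 5, 6]]

def tau2 : List (List ℕ) :=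
  [[], [], [], [5], [0, 5], [0, 0, 5], [1, 5], [1, 0, 5], [1, 0, 0, 5], [1, 1, 5], [4, 0, 5], [4, 1, 5]]

def tau3 : List (List ℕ) :=
  [[], [], [], [], [0], [0, 0], [1], [1, 0], [1, 0, 0], [1, 1], [4, 0], [4, 1]]

def tau4 : List (List ℕ) :=
  [[], [], [], [], [], [2, 2], [2], [3], [2, 3], [3, 4], [4], [4, 2]]

def cert0 : List (List ℕ) :=
  [[1, 0, 4, 4],
   [1, 0, 4, 4],
   [1, 0, 4, 4],
   [1, 0, 3, 4],
   [1, 0, 3, 4],
   [1, 0, 3, 4],
   [1, 0, 3, 4],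
   [1, 0, 3, 4],
   [1, 0, 3, 4],
   [1, 0, 3, 9],
   [1, 0, 3, 4],
   [1, 0, 3, 6],
   [1, 0, 7, 4],
   [1, 0, 11, 8],
   [1, 0, 6, 4],
   [1, 0, 3, 4],
   [1, 0, 3, 4],
   [1, 0, 3, 4],
   [1, 0, 3, 4],
   [1, 0, 3, 9],
   [1, 0, 3, 9],
   [1, 0, 3, 4],
   [1, 0, 3, 6],
   [1, 0, 3, 6],
   [1, 0, 3, 7],
   [1, 0, 3, 11],
   [1, 0, 3, 6],
   [1, 0, 3, 8],
   [1, 0, 3, 8],
   [1, 0, 3, 8],
   [1, 0, 3, 8],
   [1, 0, 3, 8],
   [1, 0, 3, 7],
   [1, 0, 3, 8],
   [1, 0, 3, 7],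
   [1, 0, 3, 10],
   [1, 0, 3, 8],
   [1, 0, 3, 9],
   [1, 0, 3, 7],
   [1, 0, 3, 7],
   [1, 0, 3, 7],
   [1, 0, 3, 10],
   [1, 0, 3, 10],
   [1, 0, 3, 7],
   [1, 0, 3, 7],
   [1, 0, 3, 7],
   [1, 0, 3, 10],
   [1, 0, 3, 10],
   [1, 0, 3, 9],
   [1, 0, 3, 8],
   [1, 0, 3, 10],
   [1, 0, 3, 6],
   [1, 0, 3, 4],
   [1, 0, 3, 6],
   [1, 0, 3, 4],
   [1, 0, 3, 6],
   [1, 0, 3, 6],
   [1, 0, 3, 6],
   [1, 0, 3, 5],
   [1, 0, 3, 5],
   [1, 0, 3, 4],
   [1, 3, 3, 4],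
   [1, 3, 3, 4],
   [1, 0, 3, 4],
   [1, 0, 5, 5],
   [1, 0, 4, 5],
   [1, 0, 11, 7],
   [1, 0, 10, 11],
   [1, 0, 5, 9],
   [1, 0, 10, 8],
   [1, 0, 6, 6],
   [1, 0, 8, 4],
   [1, 0, 3, 4],
   [1, 0, 3, 4],
   [0, 0, 3, 4],
   [1, 3, 3, 4],
   [1, 3, 3, 4],
   [1, 3, 3, 4],
   [1, 3, 3, 4],
   [1, 3, 3, 11],
   [1, 3, 3, 11],
   [1, 3, 3, 4],
   [1, 3, 3, 6],
   [1, 3, 3, 6],
   [0, 0, 3, 4],
   [1, 0, 3, 4],
   [1, 0, 3, 4],
   [0, 0, 3, 4],
   [0, 0, 3, 4],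
   [0, 0, 3, 4],
   [0, 0, 3, 6],
   [0, 0, 3, 4],
   [0, 0, 3, 6],
   [0, 0, 3, 4],
   [0, 0, 3, 6],
   [0, 0, 3, 6]]

def cert1 : List (List ℕ) :=
  [[0, 4, 4],
   [0, 4, 4],
   [],
   [0, 3, 4],
   [0, 3, 4],
   [0, 3, 4],
   [0, 3, 4],
   [0, 3, 4],
   [0, 3, 4],
   [0, 3, 7],
   [0, 3, 4],
   [0, 3, 11],
   [0, 9, 4],
   [0, 6, 4],
   [],
   [0, 3, 4],
   [0, 3, 4],
   [0, 3, 4],
   [0, 3, 4],
   [0, 3, 7],
   [0, 3, 7],
   [0, 3, 4],
   [0, 3, 11],
   [0, 3, 11],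
   [0, 3, 9],
   [0, 3, 6],
   [],
   [0, 3, 10],
   [0, 3, 10],
   [0, 3, 10],
   [0, 3, 10],
   [0, 3, 10],
   [0, 3, 9],
   [0, 3, 10],
   [0, 3, 9],
   [0, 3, 8],
   [0, 3, 10],
   [0, 3, 7],
   [],
   [0, 3, 9],
   [0, 3, 9],
   [0, 3, 8],
   [0, 3, 8],
   [0, 3, 9],
   [0, 3, 9],
   [0, 3, 9],
   [0, 3, 8],
   [0, 3, 8],
   [0, 3, 7],
   [0, 3, 10],
   [],
   [0, 3, 11],
   [0, 3, 4],
   [0, 3, 11],
   [0, 3, 4],
   [0, 3, 11],
   [0, 3, 11],
   [0, 3, 11],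
   [0, 3, 5],
   [0, 3, 5],
   [0, 3, 4],
   [3, 3, 4],
   [],
   [0, 3, 4],
   [0, 5, 5],
   [0, 4, 5],
   [0, 6, 11],
   [0, 8, 7],
   [0, 5, 7],
   [0, 8, 4],
   [0, 11, 6],
   [0, 10, 8],
   [0, 3, 4],
   [0, 3, 4],
   [],
   [3, 3, 4],
   [3, 3, 4],
   [3, 3, 4],
   [3, 3, 4],
   [3, 3, 6],
   [3, 3, 6],
   [3, 3, 4],
   [3, 3, 11],
   [3, 3, 11]]

def cert2 : List (List ℕ) :=
  [[4, 4],
   [],
   [],
   [3, 4],
   [3, 4],
   [3, 4],
   [3, 4],
   [3, 4],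
   [3, 4],
   [3, 10],
   [3, 4],
   [3, 8],
   [6, 4],
   [],
   [],
   [3, 4],
   [3, 4],
   [3, 4],
   [3, 4],
   [3, 10],
   [3, 10],
   [3, 4],
   [3, 8],
   [3, 8],
   [3, 6],
   [],
   [],
   [3, 7],
   [3, 7],
   [3, 7],
   [3, 7],
   [3, 7],
   [3, 6],
   [3, 7],
   [3, 6],
   [3, 11],
   [3, 7],
   [],
   [],
   [3, 6],
   [3, 6],
   [3, 11],
   [3, 11],
   [3, 6],
   [3, 6],
   [3, 6],
   [3, 11],
   [3, 11],
   [3, 10],
   [],
   [],
   [3, 8],
   [3, 4],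
   [3, 8],
   [3, 4],
   [3, 8],
   [3, 8],
   [3, 8],
   [3, 5],
   [3, 5],
   [3, 4],
   [],
   [],
   [3, 4],
   [5, 5],
   [4, 5],
   [9, 8],
   [11, 4],
   [5, 10],
   [11, 8],
   [8, 8],
   [7, 4]]

def cert3 : List (List ℕ) :=
  [[],
   [],
   [],
   [4],
   [4],
   [4],
   [4],
   [4],
   [4],
   [8],
   [4],
   [10],
   [],
   [],
   [],
   [4],
   [4],
   [4],
   [4],
   [8],
   [8],
   [4],
   [10],
   [10],
   [],
   [],
   [],
   [6],
   [6],
   [6],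
   [6],
   [6],
   [7],
   [6],
   [7],
   [9],
   [],
   [],
   [],
   [7],
   [7],
   [9],
   [9],
   [7],
   [7],
   [7],
   [9],
   [9],
   [],
   [],
   [],
   [10],
   [4],
   [10],
   [4],
   [10],
   [10],
   [10],
   [5],
   [5]]

def cert4 : List (List ℕ) :=
  [[],
   [],
   [],
   [],
   [],
   [],
   [],
   [],
   [],
   [],
   [],
   [],
   [],
   [],
   [],
   [],
   [],
   [],
   [],
   [],
   [],
   [],
   [],
   [],
   [],
   [],
   [],
   [],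
   [],
   [],
   [],
   [],
   [],
   [],
   [],
   []]

/-- The generators. -/
def genList : List (Equiv.Perm (Fin 12)) :=
  [Equiv.swap 3 5 * Equiv.swap 3 4 * Equiv.swap 6 8 * Equiv.swap 6 7 * Equiv.swap 9 11 * Equiv.swap 9 10,
   Equiv.swap 3 9 * Equiv.swap 3 6 * Equiv.swap 4 10 * Equiv.swap 4 7 * Equiv.swap 5 11 * Equiv.swap 5 8,
   Equiv.swap 4 9 * Equiv.swap 4 5 * Equiv.swap 4 6 * Equiv.swap 7 10 * Equiv.swap 7 11 * Equiv.swap 7 8,
   Equiv.swap 4 11 * Equiv.swap 4 5 * Equiv.swap 4 7 * Equiv.swap 6 8 * Equiv.swap 6 9 * Equiv.swap 6 10,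
   Equiv.swap 4 8 * Equiv.swap 4 5 * Equiv.swap 4 10 * Equiv.swap 6 7 * Equiv.swap 6 9 * Equiv.swap 6 11,
   Equiv.swap 0 3 * Equiv.swap 6 7 * Equiv.swap 8 10 * Equiv.swap 9 11,
   Equiv.swap 0 1 * Equiv.swap 6 9 * Equiv.swap 7 10 * Equiv.swap 8 11,
   Equiv.swap 1 2 * Equiv.swap 6 11 * Equiv.swap 7 9 * Equiv.swap 8 10]

/-- The generator with a given number. -/
def gen (i : ℕ) : Equiv.Perm (Fin 12) := genList.getD i 1

/-- A word in the generators. -/
def gw (w : List ℕ) : Equiv.Perm (Fin 12) := (w.map gen).prod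

/-- Evaluation of a word on a point number. -/
def ev (w : List ℕ) (n : ℕ) : ℕ :=
  w.foldr (fun i a => (tab.getD i (List.range 12)).getD a 0) n

theorem gen_tab : ∀ (i : Fin 8) (x : Fin 12),
    (gen i x).val = (tab.getD i (List.range 12)).getD x.val 0 := by decide +kernel

theorem gen_val (i : ℕ) (x : Fin 12) :
    (gen i x).val = (tab.getD i (List.range 12)).getD x.val 0 := by
  by_cases h : i < 8
  · exact gen_tab ⟨i, h⟩ x
  · have h1 : gen i = 1 := List.getD_eq_default _ _ (by simp [genList]; omega)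
    have h2 : tab.getD i (List.range 12) = List.range 12 := List.getD_eq_default _ _ (by simp [tab]; omega)
    rw [h1, h2]
    simp [List.getD_eq_getElem?_getD]

theorem gw_val (w : List ℕ) (x : Fin 12) : (gw w x).val = ev w x.val := by
  induction w with
  | nil => rfl
  | cons i w ih =>
    show ((gen i * gw w) x).val = _
    rw [Equiv.Perm.mul_apply, gen_val, ih]
    rfl

theorem gw_append (v w : List ℕ) : gw (v ++ w) = gw v * gw w := by simp [gw]

/-- The subgroup generated by some of the generators. -/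
def Gs (S : List ℕ) : Subgroup (Equiv.Perm (Fin 12)) := Subgroup.closure (gen '' {i | i ∈ S})

theorem gen_mem {S : List ℕ} {i : ℕ} (h : i ∈ S) : gen i ∈ Gs S :=
  Subgroup.subset_closure ⟨i, h, rfl⟩

theorem gw_mem {S w : List ℕ} (h : ∀ i ∈ w, i ∈ S) : gw w ∈ Gs S :=
  Subgroup.list_prod_mem _ fun g hg => by
    obtain ⟨i, hi, rfl⟩ := List.mem_map.mp hg
    exact gen_mem (h i hi)

/-- The lower-level word of a certificate entry. -/
def certWord (taus : List (List (List ℕ))) (c : List ℕ) : List ℕ :=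
  (List.zipWith (fun T i => T.getD i []) taus c).flatten

theorem mem_certWord {taus : List (List (List ℕ))} {P : ℕ → Prop}
    (h : ∀ U ∈ taus, ∀ w ∈ U, ∀ i ∈ w, P i) : ∀ c : List ℕ, ∀ i ∈ certWord taus c, P i := by
  induction taus with
  | nil => simp [certWord]
  | cons U taus ih =>
    intro c i hi
    cases c with
    | nil => simp [certWord] at hi
    | cons n c =>
      simp only [certWord, List.zipWith_cons_cons, List.flatten_cons, List.mem_append] at hi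
      rcases hi with hi | hi
      · rw [List.getD_eq_getElem?_getD] at hi
        cases hc : U[n]? with
        | none => simp [hc] at hi
        | some v =>
          rw [hc] at hi
          exact h U (List.mem_cons_self ..) v (List.mem_of_getElem? hc) i hi
      · exact ih (fun U hU => h U (List.mem_cons_of_mem _ hU)) c i hi

/-- The checks of one level of the stabiliser chain. -/
def levelOK (S S' F : List ℕ) (b0 : ℕ) (T : List (List ℕ)) (taus : List (List (List ℕ)))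
    (cert : List (List ℕ)) : Bool :=
  S'.all (fun i => S.contains i) && S.all (fun i => F.all fun f => ev [i] f == f) &&
  S'.all (fun i => ev [i] b0 == b0) && !F.contains b0 && decide (b0 < 12) && T.getD b0 [0] == [] &&
  taus.all (fun U => U.all fun w => w.all fun i => S'.contains i) &&
  (List.range 12).all (fun b => F.contains b ||
    ((T.getD b []).all (fun i => S.contains i) && ev (T.getD b []) b0 == b)) &&
  S.zipIdx.all (fun p => (List.range 12).all fun b => F.contains b ||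
    (List.range 12).all fun x => ev (p.1 :: T.getD b []) x ==
      ev (T.getD (ev [p.1] b) [] ++ certWord taus (cert.getD (12 * p.2 + b) [])) x)

/-- One level of the stabiliser chain. -/
theorem level {S S' F : List ℕ} {b0 : ℕ} {T : List (List ℕ)} {taus : List (List (List ℕ))}
    {cert : List (List ℕ)} (h : levelOK S S' F b0 T taus cert = true) (q : Fin 12)
    (hq : q.val = b0) :
    Gs S' = Gs S ⊓ MulAction.stabilizer (Equiv.Perm (Fin 12)) q ∧
      Nat.card ↥(Gs S) = Nat.card {b : Fin 12 // b.val ∉ F} * Nat.card ↥(Gs S') := by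
  subst hq
  simp only [levelOK, Bool.and_eq_true, List.all_eq_true, List.contains_iff_mem, Bool.not_eq_true',
    decide_eq_true_eq, beq_iff_eq, Bool.or_eq_true, List.mem_range] at h
  obtain ⟨⟨⟨⟨⟨⟨⟨⟨hSS, hSF⟩, hS'b⟩, hb0F⟩, -⟩, hT0⟩, htaus⟩, hT⟩, hstep⟩ := h
  have hFfix : ∀ x ∈ Gs S, ∀ b : Fin 12, b.val ∈ F → x b = b := by
    intro x hx
    induction hx using Subgroup.closure_induction with
    | mem g hg =>
      obtain ⟨i, hi, rfl⟩ := hg
      intro b hb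
      exact Fin.ext ((gen_val i b).trans (hSF i hi _ hb))
    | one => intro b _; rfl
    | mul a c _ _ iha ihc =>
      intro b hb
      rw [Equiv.Perm.mul_apply, ihc b hb, iha b hb]
    | inv a _ iha =>
      intro b hb
      exact (Equiv.Perm.inv_eq_iff_eq).mpr (iha b hb).symm
  have horb : ∀ x ∈ Gs S, ∀ b : Fin 12, b.val ∉ F → (x b).val ∉ F := fun x hx b hb hm => hb (by
    rwa [x.injective (hFfix x hx (x b) hm)] at hm)
  have hb0' : q.val ∉ F := fun hm => by simp [hm] at hb0F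
  let τ : Fin 12 → Equiv.Perm (Fin 12) := fun b => gw (T.getD b.val [])
  have hτ : ∀ b : Fin 12, b.val ∉ F → τ b ∈ Gs S ∧ τ b q = b := fun b hb => by
    obtain ⟨h1, h2⟩ := (hT b.val b.isLt).resolve_left hb
    exact ⟨gw_mem h1, Fin.ext ((gw_val _ _).trans h2)⟩
  have hτ0 : τ q = 1 := by
    have : T.getD q.val [] = [] := by
      rw [List.getD_eq_getElem?_getD] at hT0 ⊢
      cases hc : T[q.val]? with
      | none => rfl
      | some v => rw [hc] at hT0; exact hT0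
    show gw (T.getD q.val []) = 1
    rw [this]; rfl
  have hle : Gs S' ≤ Gs S := Subgroup.closure_mono (Set.image_mono fun i hi => hSS i hi)
  have hfix' : Gs S' ≤ MulAction.stabilizer (Equiv.Perm (Fin 12)) q :=
    (Subgroup.closure_le _).mpr (by
      rintro _ ⟨i, hi, rfl⟩
      exact Fin.ext ((gen_val i q).trans (hS'b i hi)))
  have key : ∀ x ∈ Gs S, ∀ b : Fin 12, b.val ∉ F → (τ (x b))⁻¹ * x * τ b ∈ Gs S' := by
    intro x hx
    induction hx using Subgroup.closure_induction with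
    | mem g hg =>
      obtain ⟨i, hi, rfl⟩ := hg
      intro b hb
      obtain ⟨j, hj⟩ := List.getElem?_of_mem hi
      have hp : (i, j) ∈ S.zipIdx := List.mk_mem_zipIdx_iff_getElem?.mpr hj
      have he := (hstep (i, j) hp b.val b.isLt).resolve_left hb
      have hgb : ev [i] b.val = (gen i b).val := (gen_val i b).symm
      simp only [hgb] at he
      have e : gen i * τ b = τ (gen i b) *
          gw (certWord taus (cert.getD (12 * j + b.val) [])) := by
        rw [← gw_append]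
        show gw (i :: T.getD b.val []) = _
        refine Equiv.ext fun y => Fin.ext ?_
        rw [gw_val, gw_val]
        exact he y.val y.isLt
      rw [mul_assoc, e, inv_mul_cancel_left]
      exact gw_mem (mem_certWord htaus _)
    | one =>
      intro b _
      simpa using one_mem (Gs S')
    | mul a c ha hc iha ihc =>
      intro b hb
      have := mul_mem (iha (c b) (horb c hc b hb)) (ihc b hb)
      rw [Equiv.Perm.mul_apply]
      convert this using 1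
      group
    | inv a ha iha =>
      intro b hb
      have hb' := horb _ (inv_mem ha) b hb
      have := inv_mem (iha (a⁻¹ b) hb')
      rw [← Equiv.Perm.mul_apply, mul_inv_cancel, Equiv.Perm.one_apply] at this
      convert this using 1
      group
  have hst : Gs S' = Gs S ⊓ MulAction.stabilizer (Equiv.Perm (Fin 12)) q := by
    refine le_antisymm (le_inf hle hfix') fun x hx => ?_
    have := key x hx.1 q hb0'
    rw [show x q = q from hx.2, hτ0] at this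
    simpa using this
  refine ⟨hst, ?_⟩
  rw [← Nat.card_prod]
  refine (Nat.card_eq_of_bijective (fun p : {b : Fin 12 // b.val ∉ F} × ↥(Gs S') =>
    (⟨τ p.1.1 * p.2.1, mul_mem (hτ _ p.1.2).1 (hle p.2.2)⟩ : ↥(Gs S))) ⟨?_, ?_⟩).symm
  · rintro ⟨b, h⟩ ⟨b', h'⟩ e
    have e' : τ b.1 * h.1 = τ b'.1 * h'.1 := congrArg Subtype.val e
    have hb : b = b' := by
      have := congrArg (fun g : Equiv.Perm (Fin 12) => g q) e'
      simp only [Equiv.Perm.mul_apply, show h.1 q = q from hfix' h.2,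
        show h'.1 q = q from hfix' h'.2, (hτ _ b.2).2, (hτ _ b'.2).2] at this
      exact Subtype.ext this
    subst hb
    exact Prod.ext rfl (Subtype.ext (mul_left_cancel e'))
  · rintro ⟨x, hx⟩
    have hb := horb x hx q hb0'
    refine ⟨(⟨x q, hb⟩, ⟨(τ (x q))⁻¹ * x, ?_⟩), Subtype.ext (mul_inv_cancel_left _ _)⟩
    simpa [hτ0] using key x hx q hb0'

theorem level0 : levelOK [0, 1, 2, 3, 4, 5, 6, 7] [0, 1, 2, 3, 4, 5, 6] [] 2 tau0
    [tau1, tau2, tau3, tau4] cert0 = true := by decide +kernel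

theorem level1 : levelOK [0, 1, 2, 3, 4, 5, 6] [0, 1, 2, 3, 4, 5] [2] 1 tau1
    [tau2, tau3, tau4] cert1 = true := by decide +kernel

theorem level2 : levelOK [0, 1, 2, 3, 4, 5] [0, 1, 2, 3, 4] [2, 1] 0 tau2
    [tau3, tau4] cert2 = true := by decide +kernel

theorem level3 : levelOK [0, 1, 2, 3, 4] [2, 3, 4] [2, 1, 0] 3 tau3 [tau4] cert3 = true := by
  decide +kernel

theorem level4 : levelOK [2, 3, 4] [] [2, 1, 0, 3] 4 tau4 [] cert4 = true := by decide +kernel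

end CfsgLib.Mathieu12Explicit
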